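import Cfsg.Agent.Lib.TC.Data.Fi24a.Arr

set_option autoImplicit false

namespace Cfsg.Agent.Lib.TC.Data.Fi24a

open Cfsg.Agent.Lib.TC.Fast

theorem K80_ok : allF Fk (nat_lit 256950) (nat_lit 2831) = true := by decide +kernel

end Cfsg.Agent.Lib.TC.Data.Fi24a
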